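import Mathlib
import Cfsg.Agent.Lib.Ru.R3.Data
import Cfsg.Agent.Lib.LieModel.Tits.P.Data

/-! generated certificate -/

set_option autoImplicit false
set_option maxRecDepth 100000
set_option Elab.async false

namespace CfsgLib.Ru.R3

open CfsgLib.Comput CfsgLib.SubCl CfsgLib.Rank3

theorem c_k0 : kidOK st sT XT 0x3f9ffffff8 ys Nw ys (1 <<< 1) (1 <<< 181) Z2 X (SubCl.leaf st 4060 E [(D0, alD), (E, alE)] []) k0 = true := by decide +kernel

theorem c_k1 : kidOK st sT XT 0x3f9ffffff8 ys Nw ys (1 <<< 1) (1 <<< 181) Z2 X (SubCl.leaf st 4060 E [(D0, alD), (E, alE)] []) k1 = true := by decide +kernel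

theorem c_k2 : kidOK st sT XT 0x3f9ffffff8 ys Nw ys (1 <<< 1) (1 <<< 181) Z2 X (SubCl.leaf st 4060 E [(D0, alD), (E, alE)] []) k2 = true := by decide +kernel

theorem c_k3 : kidOK st sT XT 0x3f9ffffff8 ys Nw ys (1 <<< 1) (1 <<< 181) Z2 X (SubCl.leaf st 4060 E [(D0, alD), (E, alE)] []) k3 = true := by decide +kernel

/-- test of the labelling -/
noncomputable def lo : ℕ → Bool := labOK (stepW st [35, 36, 37, 0, 38]) (salt (stepN LieModel.Tits.P.W)) 4060 1755 L I D0
  [(1, T0), (2, T1), (3, T2), (5, T3)]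

theorem c_l0 : allLt (fun i => lo (Nat.add 0 i)) 300 = true := by decide +kernel

theorem c_l1 : allLt (fun i => lo (Nat.add 300 i)) 300 = true := by decide +kernel

theorem c_l2 : allLt (fun i => lo (Nat.add 600 i)) 300 = true := by decide +kernel

theorem c_l3 : allLt (fun i => lo (Nat.add 900 i)) 300 = true := by decide +kernel

theorem c_l4 : allLt (fun i => lo (Nat.add 1200 i)) 300 = true := by decide +kernel

theorem c_l5 : allLt (fun i => lo (Nat.add 1500 i)) 255 = true := by decide +kernel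

theorem c_l : ∀ i < 1755, lo i = true :=
  lt_add (lt_add (lt_add (lt_add (lt_add (lt_add (a := 0) (fun _ h => absurd h (Nat.not_lt_zero _)) c_l0) c_l1) c_l2) c_l3) c_l4) c_l5

end CfsgLib.Ru.R3
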