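import Mathlib
import Cfsg.Agent.Lib.Ru.R3.C0
import Cfsg.Agent.Lib.Ru.R3.C1
import Cfsg.Agent.Lib.Ru.Main
import Cfsg.Agent.Lib.LieModel.Tits.Iso

/-!
# The Rudvalis group as a rank 3 group
-/

set_option autoImplicit false
set_option maxRecDepth 100000

namespace CfsgLib.Ru.R3

open CfsgLib.Comput CfsgLib.SubCl CfsgLib.Rank3 MulAction Subgroup Equiv
open scoped Pointwise

local notation "g" => permG 4060 W
local notation "g₀" => permG 4060 P.W
local notation "pt" => finPt 4060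
local notation "H" => St GP (pt 0)

theorem W_ok : allL (Net.ok 4060) W = true := ok_append P.W_ok Xn_ok

theorem M : SM g 4060 pt st := SM.perm W_ok (by norm_num)

theorem hH₀ : H = cl g₀ P.L0.hs := by
  rw [GP, P.top_eq P.E]; exact (P.good_0 P.M P.E).1.stabilizer_eq (P.M.fixes P.s_fix)

theorem hH₁ : H ⊓ stabilizer _ (pt 1) = cl g₀ P.L1.hs := by
  rw [hH₀]; exact (P.good_1 P.M P.E).1.stabilizer_eq (P.M.fixes (by decide +kernel))

theorem hH₂ : H ⊓ stabilizer _ (pt 1) ⊓ stabilizer _ (pt 181) = cl g₀ P.L2.hs := by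
  rw [hH₁]; exact (P.good_2 P.M P.E).1.stabilizer_eq (P.M.fixes (by decide +kernel))

theorem cH : Nat.card H = 35942400 := by rw [hH₀]; exact P.card_1 P.M P.E

theorem hA : InA g 0x3f9ffffff8 H :=
  Ext.sound' ext (inA_append (hH₀ ▸ P.inA_1 P.E) (by decide +kernel)) ((WM.perm W_ok (by norm_num)).allHold c_ext)
    (by decide +kernel)

theorem hg : ∀ m, g m ∈ GP := mem_of_inA (j := 38)
  ((inA_append (P.inA_top P.E) (by decide +kernel)).lor (hA.mono inf_le_left)) (by decide +kernel)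

theorem V : WM g sT XT :=
  wm_base M (acts_permG W_ok) GP hg (fun x hx => P.base_faith P.M P.E x (P.top_eq P.E ▸ hx)) c_base

theorem hH : H = cl g P.L0.hs := hH₀.trans (cl_append (by decide +kernel)).symm

theorem md : Md g st GP 0x3f9ffffff8 0 4043 1 D0 E Rb Rc 1755 2304 := md_of M hg hH (hH ▸ hA) c_md

theorem goalK : ∀ K ≤ H, Nat.card K = 20480 → Goal K (sem 4060 pt D0) :=
  haveI : Fact (Nat.Prime 2) := ⟨Nat.prime_two⟩
  (seed_of_pgroup (k := 1755) (isPGroup_of_pc V c_pc) (cl_le_of_inA hA (by decide +kernel)) cH (by norm_num)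
    (sub_cl _ (by decide +kernel))).goal (leaf_sound M (List.forall_mem_singleton.2
      ⟨md.kD, al_div M md.kD (by norm_num) (fun _ _ => dvd_zero _) c_alK⟩) (by simp) _ _ _ c_K) md.kD

theorem goalL : ∀ K ≤ H, Nat.card K = 15600 → Goal K (sem 4060 pt E) := by
  have : Fact (Nat.Prime 5) := ⟨by norm_num⟩
  have hN := V.normBy c_N
  refine (seed_of_pgroup (k := 2304) (p := 5) (isPGroup_of_pc V c_pc5) (cl_le_of_inA hA (by decide +kernel)) cH
    (by norm_num) (sub_sing.2 le_rfl)).goal (branch (Z2 := Z2) (X := X) M V hA md.kE hN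
      (cl_le_of_inA hA (by decide +kernel)) le_rfl (by norm_num) (by norm_num)
      (fun h hh => md.kE h hh _ (md.hE ▸ ⟨1, one_mem _, rfl, rfl⟩))
      (fun h hh e => mem_of_closed P.M (by decide +kernel) h (hH₁.le ⟨hh, e⟩))
      (fun h hh e e' => hN h ((cl_le.2 fun w hw => ev_mem_cl _ (of_decide_eq_true (allL_sound
        (p := fun w => decide (w ∈ Nw)) (by decide +kernel) w hw))) ((cl_append (by decide +kernel)).ge
          (hH₂.le ⟨⟨hh, e⟩, e'⟩))))
      (fun K hK hm _ h => absurd (hm ▸ count_le M (hH₂ ▸ P.card_3 P.M P.E) hK h) (by decide +kernel))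
      (by decide +kernel) (leaf_sound (ds := [(D0, alD), (E, alE)]) (ex := []) M (List.forall_mem_cons.2
        ⟨⟨md.kD, al_div M md.kD (by norm_num) (fun _ _ => dvd_zero _) c_alD⟩, List.forall_mem_singleton.2
          ⟨md.kE, al_div M md.kE (by norm_num) (fun _ _ => dvd_zero _) c_alE⟩⟩) (by simp)) c_cov ?_) md.kE
  simp only [List.forall_mem_cons]
  exact ⟨c_k0, c_k1, c_k2, c_k3, by simp⟩

theorem facts : Facts GP (pt 0) (pt 4043) (pt 1) 1755 2304 where
  R := md.R
  simple := P.simple_perm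
  hd := by norm_num
  HK := md.HK (s := 20480) cH goalK
  H1 := md.H1 c_H1
  HL := md.HL (s := 15600) cH (seed_of_fix goalL md.oE (md.cE cH) (fixOK_sound M hA md.hc (band_eq_true.1 c_H2).1))
    (List.forall_mem_singleton.2 (md.good Tw.refl (one_smul _ _) c_good)) c_L1 c_L2
  hinj := md.hinj c_inj
  H2 := md.H2 c_H2
  HA := md.HA P.M (mem_of_inA (j := 31) (P.inA_top P.E) (by decide +kernel)) aut_ok (by rw [P.card_perm]; norm_num)

theorem stab_iso : Nonempty (H ≃* Cfsg.Lie.twistedF4 (ZMod 2) 1) := by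
  obtain ⟨e, -⟩ := exists_equiv_of_lab (M.words [35, 36, 37, 0, 38]) LieModel.Tits.P.M c_l (K := H)
    (cl_le.2 fun w _ => ev_mem_of_all (ev_nth_mem fun u hu => ev_mem hA (allL_sound (by decide +kernel) u hu)) w)
    (cH.trans LieModel.Tits.card_PG.symm).le
  obtain ⟨f, -⟩ := LieModel.Tits.exists_iso
  exact ⟨e.trans f.symm⟩

end CfsgLib.Ru.R3
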